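import Mathlib

/-!
# Recognizing the binary tetrahedral group `SL(2,3)` from relations
-/

set_option autoImplicit false

namespace Cfsg.Agent.Lib.SolvLin

universe u

/-- Relations of the binary tetrahedral group. -/
structure BT {H : Type*} [Group H] (i j c : H) : Prop where
  i4 : i ^ 4 = 1
  jj : j * j = i * i
  ji : j * i = i * i * i * j
  c3 : c ^ 3 = 1
  ci : c * i = j * c
  cj : c * j = i * j * c

section Generic

variable {H : Type*} [Group H] {i j c : H}

/-- The eight elements of the quaternion part. -/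
def InQ (i j x : H) : Prop :=
  x = 1 ∨ x = i ∨ x = j ∨ x = i * j ∨ x = i * i ∨ x = i * i * i ∨ x = i * i * j ∨ x = i * i * (i * j)

theorem inQ_aux {i j z : H} (hii : i * i = z) (hjj : j * j = z) (hzz : z * z = 1)
    (hji : j * i = z * (i * j)) {x : H}
    (hx : x = 1 ∨ x = i ∨ x = j ∨ x = i * j ∨ x = z ∨ x = z * i ∨ x = z * j ∨ x = z * (i * j)) :
    (x * i = 1 ∨ x * i = i ∨ x * i = j ∨ x * i = i * j ∨ x * i = z ∨ x * i = z * i ∨ x * i = z * j ∨
      x * i = z * (i * j)) ∧
    (x * j = 1 ∨ x * j = i ∨ x * j = j ∨ x * j = i * j ∨ x * j = z ∨ x * j = z * i ∨ x * j = z * j ∨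
      x * j = z * (i * j)) := by
  have hzi : i * z = z * i := by rw [← hii, mul_assoc]
  have hzj : j * z = z * j := by
    calc j * z = j * (i * i) := by rw [hii]
      _ = (j * i) * i := (mul_assoc _ _ _).symm
      _ = (z * (i * j)) * i := by rw [hji]
      _ = z * i * (j * i) := by simp only [mul_assoc]
      _ = z * i * (z * (i * j)) := by rw [hji]
      _ = z * (i * z) * (i * j) := by simp only [mul_assoc]
      _ = z * (z * i) * (i * j) := by rw [hzi]
      _ = (z * z) * ((i * i) * j) := by simp only [mul_assoc]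
      _ = z * j := by rw [hzz, hii, one_mul]
  have r1 : ∀ x, i * (i * x) = z * x := fun x => by rw [← mul_assoc, hii]
  have r2 : ∀ x, j * (j * x) = z * x := fun x => by rw [← mul_assoc, hjj]
  have r3 : ∀ x, j * (i * x) = z * (i * (j * x)) := fun x => by
    rw [← mul_assoc, hji]
    simp only [mul_assoc]
  have r4 : ∀ x, i * (z * x) = z * (i * x) := fun x => by
    rw [← mul_assoc, hzi, mul_assoc]
  have r5 : ∀ x, j * (z * x) = z * (j * x) := fun x => by
    rw [← mul_assoc, hzj, mul_assoc]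
  have r6 : ∀ x, z * (z * x) = x := fun x => by
    rw [← mul_assoc, hzz, one_mul]
  rcases hx with h | h | h | h | h | h | h | h <;> rw [h] <;> constructor <;>
    simp only [mul_assoc, r1, r4, r6, hii, hjj, hji, hzi, hzz, one_mul, true_or, or_true]

theorem BT.zz (h : BT i j c) : i * i * (i * i) = 1 := by
  have := h.i4
  simp only [pow_succ, pow_zero, one_mul] at this
  rw [← this]
  simp only [mul_assoc]

theorem BT.inQ_mul (h : BT i j c) {x : H} (hx : InQ i j x) : InQ i j (x * i) ∧ InQ i j (x * j) :=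
  inQ_aux rfl h.jj h.zz (by rw [h.ji]; simp only [mul_assoc]) hx

/-- The closure of a triple satisfying the relations has at most 24 elements. -/
theorem BT.mem_closure (h : BT i j c) {x : H} (hx : x ∈ Subgroup.closure ({i, j, c} : Set H)) :
    ∃ q, InQ i j q ∧ (x = q ∨ x = q * c ∨ x = q * (c * c)) := by
  have hQ := @BT.inQ_mul H _ i j c h
  have hc3 : c * c * c = 1 := by
    have := h.c3
    rw [pow_succ, pow_two] at this
    exact this
  have hmi : ∀ x, (∃ q, InQ i j q ∧ (x = q ∨ x = q * c ∨ x = q * (c * c))) →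
      ∃ q, InQ i j q ∧ (x * i = q ∨ x * i = q * c ∨ x * i = q * (c * c)) := by
    rintro x ⟨q, hq, hx | hx | hx⟩ <;> rw [hx]
    · exact ⟨q * i, (hQ hq).1, Or.inl rfl⟩
    · refine ⟨q * j, (hQ hq).2, Or.inr (Or.inl ?_)⟩
      rw [mul_assoc, h.ci, mul_assoc]
    · refine ⟨q * i * j, (hQ (hQ hq).1).2, Or.inr (Or.inr ?_)⟩
      calc q * (c * c) * i = q * c * (c * i) := by group
        _ = q * (c * j) * c := by rw [h.ci]; group
        _ = q * (i * j * c) * c := by rw [h.cj]
        _ = _ := by group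
  have hmj : ∀ x, (∃ q, InQ i j q ∧ (x = q ∨ x = q * c ∨ x = q * (c * c))) →
      ∃ q, InQ i j q ∧ (x * j = q ∨ x * j = q * c ∨ x * j = q * (c * c)) := by
    rintro x ⟨q, hq, hx | hx | hx⟩ <;> rw [hx]
    · exact ⟨q * j, (hQ hq).2, Or.inl rfl⟩
    · refine ⟨q * i * j, (hQ (hQ hq).1).2, Or.inr (Or.inl ?_)⟩
      rw [mul_assoc, h.cj]
      group
    · refine ⟨q * j * i * j, (hQ (hQ (hQ hq).2).1).2, Or.inr (Or.inr ?_)⟩
      calc q * (c * c) * j = q * c * (c * j) := by group
        _ = q * c * (i * j * c) := by rw [h.cj]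
        _ = q * (c * i) * j * c := by group
        _ = q * (j * c) * j * c := by rw [h.ci]
        _ = q * j * (c * j) * c := by group
        _ = q * j * (i * j * c) * c := by rw [h.cj]
        _ = _ := by group
  have hmc : ∀ x, (∃ q, InQ i j q ∧ (x = q ∨ x = q * c ∨ x = q * (c * c))) →
      ∃ q, InQ i j q ∧ (x * c = q ∨ x * c = q * c ∨ x * c = q * (c * c)) := by
    rintro x ⟨q, hq, hx | hx | hx⟩ <;> rw [hx]
    · exact ⟨q, hq, Or.inr (Or.inl rfl)⟩
    · exact ⟨q, hq, Or.inr (Or.inr (mul_assoc _ _ _))⟩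
    · refine ⟨q, hq, Or.inl ?_⟩
      rw [mul_assoc, hc3, mul_one]
  have hzz := h.zz
  have hiinv : i⁻¹ = i * i * i := by
    rw [inv_eq_iff_mul_eq_one]
    calc i * (i * i * i) = i * i * (i * i) := by simp only [mul_assoc]
      _ = 1 := hzz
  have hjinv : j⁻¹ = j * j * j := by
    rw [inv_eq_iff_mul_eq_one]
    calc j * (j * j * j) = (j * j) * (j * j) := by simp only [mul_assoc]
      _ = 1 := by rw [h.jj, hzz]
  have hcinv : c⁻¹ = c * c := by
    rw [inv_eq_iff_mul_eq_one, ← mul_assoc]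
    exact hc3
  induction hx using Subgroup.closure_induction_right with
  | one => exact ⟨1, Or.inl rfl, Or.inl rfl⟩
  | mul_right x _ y hy ih =>
    rcases hy with rfl | rfl | rfl
    · exact hmi x ih
    · exact hmj x ih
    · exact hmc x ih
  | mul_inv_cancel x _ y hy ih =>
    rcases hy with rfl | rfl | rfl
    · rw [hiinv]
      have := hmi _ (hmi _ (hmi _ ih))
      simpa [mul_assoc] using this
    · rw [hjinv]
      have := hmj _ (hmj _ (hmj _ ih))
      simpa [mul_assoc] using this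
    · rw [hcinv]
      have := hmc _ (hmc _ ih)
      simpa [mul_assoc] using this

theorem BT.card_closure_le [Finite H] (h : BT i j c) :
    Nat.card (Subgroup.closure ({i, j, c} : Set H)) ≤ 24 := by
  classical
  let T : Fin 8 × Fin 3 → H := fun t =>
    (![1, i, j, i * j, i * i, i * i * i, i * i * j, i * i * (i * j)] t.1) * (![1, c, c * c] t.2)
  have hsub : ((Subgroup.closure ({i, j, c} : Set H) : Subgroup H) : Set H) ⊆ Set.range T := by
    intro x hx
    obtain ⟨q, hq, hxq⟩ := h.mem_closure hx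
    have hq' : ∃ a : Fin 8, q = ![1, i, j, i * j, i * i, i * i * i, i * i * j, i * i * (i * j)] a := by
      rcases hq with rfl | rfl | rfl | rfl | rfl | rfl | rfl | rfl
      · exact ⟨0, rfl⟩
      · exact ⟨1, rfl⟩
      · exact ⟨2, rfl⟩
      · exact ⟨3, rfl⟩
      · exact ⟨4, rfl⟩
      · exact ⟨5, rfl⟩
      · exact ⟨6, rfl⟩
      · exact ⟨7, rfl⟩
    obtain ⟨a, rfl⟩ := hq'
    rcases hxq with rfl | rfl | rfl
    · exact ⟨(a, 0), by simp [T]⟩
    · exact ⟨(a, 1), by simp [T]⟩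
    · exact ⟨(a, 2), by simp [T]⟩
  have hnc : Nat.card (Subgroup.closure ({i, j, c} : Set H)) =
      Set.ncard ((Subgroup.closure ({i, j, c} : Set H) : Subgroup H) : Set H) := Nat.card_coe_set_eq _
  rw [hnc]
  calc _ ≤ (Set.range T).ncard := Set.ncard_le_ncard hsub (Set.finite_range _)
    _ ≤ Nat.card (Fin 8 × Fin 3) := by
      rw [← Set.image_univ]
      refine (Set.ncard_image_le (Set.toFinite _)).trans ?_
      rw [Set.ncard_univ]
    _ = 24 := by simp

end Generic

/-- `SL(2,3)`. -/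
abbrev SL23 := Matrix.SpecialLinearGroup (Fin 2) (ZMod 3)

def i₀ : SL23 := ⟨!![0, 2; 1, 0], by decide⟩
def j₀ : SL23 := ⟨!![1, 1; 1, 2], by decide⟩
def c₀ : SL23 := ⟨!![1, 1; 0, 1], by decide⟩

theorem bt₀ : BT i₀ j₀ c₀ := ⟨by decide, by decide, by decide, by decide, by decide, by decide⟩

theorem card_SL23 : Nat.card SL23 = 24 := by
  rw [Nat.card_eq_fintype_card]
  decide +kernel

theorem forms_SL23 : ∀ x : SL23, ∃ a b e : Fin 2, ∃ d : Fin 3,
    x = (i₀ * i₀) ^ (e : ℕ) * i₀ ^ (a : ℕ) * j₀ ^ (b : ℕ) * c₀ ^ (d : ℕ) := by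
  decide +kernel

theorem simple_SL23 : ∀ x : SL23, x ≠ 1 → ∃ g : SL23,
    x = i₀ * i₀ ∨ x ^ 2 = i₀ * i₀ ∨ x ^ 3 = i₀ * i₀ ∨ (x * g * x⁻¹ * g⁻¹) ^ 2 = i₀ * i₀ := by
  decide +kernel

theorem five_SL23 : ∀ x : SL23, x ^ 5 = 1 → x = 1 := by
  decide +kernel

theorem closure_SL23 : Subgroup.closure ({i₀, j₀, c₀} : Set SL23) = ⊤ := by
  rw [eq_top_iff]
  intro x _
  obtain ⟨a, b, e, d, rfl⟩ := forms_SL23 x
  have hi : i₀ ∈ Subgroup.closure ({i₀, j₀, c₀} : Set SL23) := Subgroup.subset_closure (by simp)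
  have hj : j₀ ∈ Subgroup.closure ({i₀, j₀, c₀} : Set SL23) := Subgroup.subset_closure (by simp)
  have hc : c₀ ∈ Subgroup.closure ({i₀, j₀, c₀} : Set SL23) := Subgroup.subset_closure (by simp)
  exact Subgroup.mul_mem _ (Subgroup.mul_mem _ (Subgroup.mul_mem _
    (Subgroup.pow_mem _ (Subgroup.mul_mem _ hi hi) _) (Subgroup.pow_mem _ hi _))
    (Subgroup.pow_mem _ hj _)) (Subgroup.pow_mem _ hc _)

/-- Relations give a homomorphism from `SL(2,3)`. -/
theorem exists_hom_SL23 {H : Type u} [Group H] [Finite H] {i j c : H} (h : BT i j c) :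
    ∃ φ : SL23 →* H, φ (i₀ * i₀) = i * i := by
  classical
  let a : H × SL23 := (i, i₀)
  let b : H × SL23 := (j, j₀)
  let d : H × SL23 := (c, c₀)
  have hB : BT a b d :=
    ⟨Prod.ext h.i4 bt₀.i4, Prod.ext h.jj bt₀.jj, Prod.ext h.ji bt₀.ji, Prod.ext h.c3 bt₀.c3,
      Prod.ext h.ci bt₀.ci, Prod.ext h.cj bt₀.cj⟩
  let D := Subgroup.closure ({a, b, d} : Set (H × SL23))
  have hcard : Nat.card D ≤ 24 := hB.card_closure_le
  let f : D →* SL23 := (MonoidHom.snd H SL23).comp D.subtype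
  have hsurj : Function.Surjective f := by
    rw [← MonoidHom.range_eq_top, eq_top_iff, ← closure_SL23, Subgroup.closure_le]
    have hm : ∀ y (hy : y ∈ ({a, b, d} : Set (H × SL23))), y.2 ∈ f.range := by
      intro y hy
      exact ⟨⟨y, Subgroup.subset_closure hy⟩, rfl⟩
    rintro x (rfl | rfl | rfl)
    · exact hm a (by simp)
    · exact hm b (by simp)
    · exact hm d (by simp)
  have hbij : Function.Bijective f := by
    refine (Nat.bijective_iff_surjective_and_card f).2 ⟨hsurj, ?_⟩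
    apply le_antisymm
    · rw [card_SL23]
      exact hcard
    · exact Nat.card_le_card_of_surjective f hsurj
  let e : D ≃* SL23 := MulEquiv.ofBijective f hbij
  let φ : SL23 →* H := (MonoidHom.fst H SL23).comp (D.subtype.comp e.symm.toMonoidHom)
  refine ⟨φ, ?_⟩
  have h1 : e ⟨a, Subgroup.subset_closure (by simp)⟩ = i₀ := rfl
  have h2 : e.symm i₀ = ⟨a, Subgroup.subset_closure (by simp)⟩ := by
    rw [MulEquiv.symm_apply_eq]
    exact h1.symm
  have h3 : φ i₀ = i := by
    change ((e.symm i₀ : D) : H × SL23).1 = i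
    rw [h2]
  rw [map_mul, h3]

/-- **Recognition of `SL(2,3)`.** -/
theorem injective_of_BT {H : Type u} [Group H] {i : H} (φ : SL23 →* H)
    (hφ : φ (i₀ * i₀) = i * i) (hz : i * i ≠ 1) : Function.Injective φ := by
  rw [injective_iff_map_eq_one]
  intro x hx
  by_contra hne
  obtain ⟨g, hg⟩ := simple_SL23 x hne
  apply hz
  rw [← hφ]
  rcases hg with h | h | h | h
  · rw [← h, hx]
  · rw [← h, map_pow, hx, one_pow]
  · rw [← h, map_pow, hx, one_pow]
  · rw [← h, map_pow, map_mul, map_mul, map_mul, map_inv, map_inv, hx]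
    simp

theorem mulEquiv_SL23 {H : Type u} [Group H] [Finite H] {i j c : H} (h : BT i j c) (hz : i * i ≠ 1)
    (hc : Nat.card H = 24) : Nonempty (H ≃* SL23) := by
  obtain ⟨φ, hφ⟩ := exists_hom_SL23 h
  have hinj := injective_of_BT φ hφ hz
  have hbij : Function.Bijective φ :=
    (Nat.bijective_iff_injective_and_card φ).2 ⟨hinj, by rw [card_SL23, hc]⟩
  exact ⟨(MulEquiv.ofBijective φ hbij).symm⟩

theorem mulEquiv_SL23_prod {H : Type u} [Group H] [Finite H] {i j c : H} (h : BT i j c) (hz : i * i ≠ 1)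
    (hc : Nat.card H = 120) (Z : Subgroup H) (hZc : ∀ a ∈ Z, ∀ g : H, a * g = g * a)
    (hZ : Nat.card Z = 5) : Nonempty (H ≃* SL23 × Multiplicative (ZMod 5)) := by
  obtain ⟨φ, hφ⟩ := exists_hom_SL23 h
  have hinj := injective_of_BT φ hφ hz
  let Ψ : SL23 × Z →* H := MonoidHom.noncommCoprod φ Z.subtype
    (fun x a => (hZc a a.2 (φ x)).symm)
  have hΨ : ∀ x a, Ψ (x, a) = φ x * a := fun x a => rfl
  have hinjΨ : Function.Injective Ψ := by
    rw [injective_iff_map_eq_one]
    rintro ⟨x, a⟩ hx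
    rw [hΨ] at hx
    have h1 : φ x = (a : H)⁻¹ := eq_inv_of_mul_eq_one_left hx
    have h2 : (a : H) ^ 5 = 1 := by
      have h3 : a ^ 5 = 1 := by
        rw [← hZ]
        exact pow_card_eq_one'
      exact congrArg Subtype.val h3
    have h4 : φ (x ^ 5) = φ 1 := by
      rw [map_pow, h1, inv_pow, h2, inv_one, map_one]
    have h5 : x = 1 := five_SL23 x (hinj h4)
    subst h5
    rw [map_one, one_mul] at hx
    have h6 : a = 1 := Subtype.ext hx
    rw [h6]
    rfl
  have hbij : Function.Bijective Ψ := by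
    refine (Nat.bijective_iff_injective_and_card Ψ).2 ⟨hinjΨ, ?_⟩
    rw [Nat.card_prod, card_SL23, hZ, hc]
  have hp5 : Fact (Nat.Prime 5) := ⟨by norm_num⟩
  have hZ5 : Nat.card (Multiplicative (ZMod 5)) = 5 := by
    rw [Nat.card_eq_fintype_card]
    rfl
  let e5 : Z ≃* Multiplicative (ZMod 5) := mulEquivOfPrimeCardEq hZ hZ5
  exact ⟨(MulEquiv.ofBijective Ψ hbij).symm.trans (MulEquiv.prodCongr (MulEquiv.refl _) e5)⟩

end Cfsg.Agent.Lib.SolvLin
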