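import Mathlib
import Cfsg.Agent.Lib.SolvLin.FieldNormal
import Cfsg.Agent.Lib.Frobenius.Zass.Act

/-!
# Normal subgroups of transitive linear groups
-/

set_option autoImplicit false

namespace Cfsg.Agent.Lib.SolvLin

open Module
open scoped commutatorElement MatrixGroups

universe u v

/-- A generated algebra whose nonzero elements are injective is commutative. -/
theorem comm_of_adjoin {R : Type u} {W : Type v} [Field R] [AddCommGroup W] [Module R W] [Finite W]
    [Nontrivial W] [Finite R] (s : Set (Module.End R W))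
    (hinj : ∀ a ∈ Algebra.adjoin R s, a ≠ 0 → Function.Injective a) :
    ∀ x ∈ s, ∀ y ∈ s, x * y = y * x := by
  obtain ⟨F, _, _, _, ψ, -, hr⟩ := exists_field_of_adjoin s hinj
  intro x hx y hy
  have hx' : x ∈ ψ.range := hr ▸ Algebra.subset_adjoin hx
  have hy' : y ∈ ψ.range := hr ▸ Algebra.subset_adjoin hy
  obtain ⟨a, rfl⟩ := hx'
  obtain ⟨b, rfl⟩ := hy'
  change ψ a * ψ b = ψ b * ψ a
  rw [← map_mul, ← map_mul, mul_comm]

section Irr

variable {p : ℕ} [hp : Fact p.Prime] {V : Type v} [AddCommGroup V] [Module (ZMod p) V] [Finite V]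
  [Nontrivial V] {G : Type u} [Group G] (ρ : G →* (V ≃ₗ[ZMod p] V)) (N : Subgroup G)

/-- **A non-abelian normal subgroup of a transitive linear group is irreducible.** -/
theorem irreducible_of_noncomm [N.Normal] (hρ : Function.Injective ρ)
    (htrans : ∀ v w : V, v ≠ 0 → w ≠ 0 → ∃ g : G, ρ g v = w)
    (hna : ¬ ∀ x ∈ N, ∀ y ∈ N, x * y = y * x)
    (W : Submodule (ZMod p) V) (hW : ∀ n ∈ N, ∀ v ∈ W, ρ n v ∈ W) : W = ⊥ ∨ W = ⊤ := by
  classical
  by_contra hcon
  push Not at hcon
  obtain ⟨hW0, hWt⟩ := hcon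
  apply hna
  have hnorm : N.Normal := inferInstance
  let Inv : Submodule (ZMod p) V → Prop := fun U => ∀ n ∈ N, ∀ v ∈ U, ρ n v ∈ U
  let Sim : Submodule (ZMod p) V → Prop := fun U =>
    U ≠ ⊥ ∧ Inv U ∧ ∀ U', U' ≠ ⊥ → Inv U' → U' ≤ U → U' = U
  haveI hfinS : Finite (Submodule (ZMod p) V) :=
    Finite.of_injective (fun U : Submodule (ZMod p) V => (U : Set V)) SetLike.coe_injective
  have hwf : WellFoundedLT (Submodule (ZMod p) V) := Finite.to_wellFoundedLT
  obtain ⟨U₀, ⟨hU₀ne, hU₀i, hU₀W⟩, hU₀min⟩ := hwf.wf.has_min {U | U ≠ ⊥ ∧ Inv U ∧ U ≤ W}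
    ⟨W, hW0, hW, le_rfl⟩
  have hU₀S : Sim U₀ := by
    refine ⟨hU₀ne, hU₀i, fun U' h1 h2 h3 => ?_⟩
    by_contra hne
    exact hU₀min U' ⟨h1, h2, h3.trans hU₀W⟩ (lt_of_le_of_ne h3 hne)
  have hU₀t : U₀ ≠ ⊤ := by
    intro h
    apply hWt
    rw [eq_top_iff, ← h]
    exact hU₀W
  -- translates
  let tr : G → Submodule (ZMod p) V → Submodule (ZMod p) V := fun g U =>
    U.map ((ρ g : V ≃ₗ[ZMod p] V) : V →ₗ[ZMod p] V)
  have hmem : ∀ g U v, v ∈ tr g U ↔ ρ g⁻¹ v ∈ U := by
    intro g U v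
    constructor
    · rintro ⟨u, hu, rfl⟩
      have : ρ g⁻¹ (ρ g u) = u := by
        rw [← LinearEquiv.mul_apply, ← map_mul, inv_mul_cancel, map_one]
        rfl
      change ρ g⁻¹ (ρ g u) ∈ U
      rwa [this]
    · intro h
      refine ⟨_, h, ?_⟩
      change ρ g (ρ g⁻¹ v) = v
      rw [← LinearEquiv.mul_apply, ← map_mul, mul_inv_cancel, map_one]
      rfl
  have hinvtr : ∀ g U, Inv U → Inv (tr g U) := by
    intro g U hU n hn v hv
    rw [hmem] at hv ⊢
    have h1 : g⁻¹ * n * g⁻¹⁻¹ ∈ N := hnorm.conj_mem n hn g⁻¹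
    have h2 := hU _ h1 _ hv
    have h3 : ρ (g⁻¹ * n * g⁻¹⁻¹) (ρ g⁻¹ v) = ρ g⁻¹ (ρ n v) := by
      rw [← LinearEquiv.mul_apply, ← map_mul, ← LinearEquiv.mul_apply, ← map_mul]
      congr 2
      group
    rwa [h3] at h2
  have htrtr : ∀ g U, tr g⁻¹ (tr g U) = U := by
    intro g U
    ext v
    rw [hmem, hmem, inv_inv]
    have : ρ g⁻¹ (ρ g v) = v := by
      rw [← LinearEquiv.mul_apply, ← map_mul, inv_mul_cancel, map_one]
      rfl
    rw [this]
  have hbot : ∀ g U, U ≠ ⊥ → tr g U ≠ ⊥ := by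
    intro g U hU h
    apply hU
    rw [← htrtr g U, h]
    exact Submodule.map_bot _
  have hmono : ∀ g {U U' : Submodule (ZMod p) V}, U ≤ U' → tr g U ≤ tr g U' := fun g _ _ h =>
    Submodule.map_mono h
  have hsim : ∀ g U, Sim U → Sim (tr g U) := by
    rintro g U ⟨h1, h2, h3⟩
    refine ⟨hbot g U h1, hinvtr g U h2, fun U' h4 h5 h6 => ?_⟩
    have h7 := h3 (tr g⁻¹ U') (hbot _ _ h4) (hinvtr _ _ h5) (by
      have := hmono g⁻¹ h6
      rwa [htrtr] at this)
    have h8 := htrtr g⁻¹ U'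
    rw [inv_inv, h7] at h8
    exact h8.symm
  obtain ⟨u₀, hu₀, hu₀0⟩ := (Submodule.ne_bot_iff _).1 hU₀ne
  have hcover : ∀ v : V, v ≠ 0 → ∃ U, Sim U ∧ v ∈ U := by
    intro v hv
    obtain ⟨g, hg⟩ := htrans u₀ v hu₀0 hv
    refine ⟨tr g U₀, hsim g U₀ hU₀S, ?_⟩
    exact ⟨u₀, hu₀, hg⟩
  have hinter : ∀ U U', Sim U → Sim U' → U ≠ U' → U ⊓ U' = ⊥ := by
    intro U U' hU hU' hne
    by_contra h
    have hi : Inv (U ⊓ U') := fun n hn v hv => ⟨hU.2.1 n hn v hv.1, hU'.2.1 n hn v hv.2⟩
    have h1 := hU.2.2 _ h hi inf_le_left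
    have h2 := hU'.2.2 _ h hi inf_le_right
    exact hne (h1.symm.trans h2)
  -- the algebra
  let s : Set (Module.End (ZMod p) V) := endOf ρ '' (N : Set G)
  have hRinv : ∀ r ∈ Algebra.adjoin (ZMod p) s, ∀ U, Inv U → ∀ v ∈ U, r v ∈ U := by
    intro r hr U hU
    refine Algebra.adjoin_induction (p := fun X _ => ∀ v ∈ U, X v ∈ U) ?_ ?_ ?_ ?_ hr
    · rintro _ ⟨a, ha, rfl⟩ v hv
      exact hU a ha v hv
    · intro c v hv
      exact U.smul_mem c hv
    · intro X Y _ _ hX hY v hv
      exact U.add_mem (hX v hv) (hY v hv)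
    · intro X Y _ _ hX hY v hv
      exact hX _ (hY v hv)
  have hA : ∀ r ∈ Algebra.adjoin (ZMod p) s, ∀ U U', Sim U → Sim U' → U ⊓ U' = ⊥ →
      ∀ u ∈ U, u ≠ 0 → ∀ u' ∈ U', u' ≠ 0 → r u = 0 → r u' = 0 := by
    intro r hr U U' hU hU' hUU' u hu hu0 u' hu' hu'0 hru
    have hw : u + u' ≠ 0 := by
      intro h
      have h1 : u = -u' := eq_neg_of_add_eq_zero_left h
      have h2 : u ∈ U ⊓ U' := ⟨hu, h1 ▸ U'.neg_mem hu'⟩
      rw [hUU', Submodule.mem_bot] at h2
      exact hu0 h2
    obtain ⟨W₁, hW₁, hwW₁⟩ := hcover _ hw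
    have hne : W₁ ≠ U' := by
      rintro rfl
      have h1 : u ∈ W₁ := by
        have := W₁.sub_mem hwW₁ hu'
        simpa using this
      have h2 : u ∈ U ⊓ W₁ := ⟨hu, h1⟩
      rw [hUU', Submodule.mem_bot] at h2
      exact hu0 h2
    have h1 := hinter _ _ hW₁ hU' hne
    have h2 : r (u + u') ∈ W₁ := hRinv r hr W₁ hW₁.2.1 _ hwW₁
    rw [map_add, hru, zero_add] at h2
    have h3 : r u' ∈ W₁ ⊓ U' := ⟨h2, hRinv r hr U' hU'.2.1 _ hu'⟩
    rw [h1, Submodule.mem_bot] at h3
    exact h3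
  -- two distinct simple modules
  obtain ⟨y, hy⟩ : ∃ y, y ∉ U₀ := by
    by_contra hall
    push Not at hall
    exact hU₀t (eq_top_iff.2 fun v _ => hall v)
  have hy0 : y ≠ 0 := by
    rintro rfl
    exact hy U₀.zero_mem
  obtain ⟨U₂, hU₂, hyU₂⟩ := hcover y hy0
  have hU₂ne : U₂ ≠ U₀ := by
    rintro rfl
    exact hy hyU₂
  have hother : ∀ U, Sim U → ∃ U', Sim U' ∧ U ≠ U' := by
    intro U hU
    by_cases h : U = U₀
    · exact ⟨U₂, hU₂, h ▸ hU₂ne.symm⟩
    · exact ⟨U₀, hU₀S, h⟩
  have hinj : ∀ r ∈ Algebra.adjoin (ZMod p) s, r ≠ 0 → Function.Injective r := by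
    intro r hr hr0
    rw [injective_iff_map_eq_zero]
    intro x hx
    by_contra hx0
    apply hr0
    apply LinearMap.ext
    intro v
    by_cases hv : v = 0
    · rw [hv, map_zero]; rfl
    obtain ⟨Ux, hUx, hxUx⟩ := hcover x hx0
    obtain ⟨Uv, hUv, hvUv⟩ := hcover v hv
    change r v = 0
    by_cases hUU : Ux = Uv
    · obtain ⟨U', hU', hne⟩ := hother Ux hUx
      obtain ⟨y', hy', hy'0⟩ := (Submodule.ne_bot_iff _).1 hU'.1
      have h1 := hA r hr Ux U' hUx hU' (hinter _ _ hUx hU' hne) x hxUx hx0 y' hy' hy'0 hx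
      have h2 := hA r hr U' Ux hU' hUx (hinter _ _ hU' hUx hne.symm) y' hy' hy'0 x hxUx hx0 h1
      rw [← hUU] at hvUv
      exact hA r hr U' Ux hU' hUx (hinter _ _ hU' hUx hne.symm) y' hy' hy'0 v hvUv hv h1
    · exact hA r hr Ux Uv hUx hUv (hinter _ _ hUx hUv hUU) x hxUx hx0 v hvUv hv hx
  have hcomm := comm_of_adjoin s hinj
  intro x hx y hy
  have h1 := hcomm _ ⟨x, hx, rfl⟩ _ ⟨y, hy, rfl⟩
  rw [← map_mul, ← map_mul] at h1
  apply hρ
  apply LinearEquiv.ext
  intro v
  exact LinearMap.congr_fun h1 v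

/-- **The centralizer of an irreducible normal subgroup is abelian.** -/
theorem centralizer_comm_of_irreducible (hρ : Function.Injective ρ)
    (hirr : ∀ W : Submodule (ZMod p) V, (∀ n ∈ N, ∀ v ∈ W, ρ n v ∈ W) → W = ⊥ ∨ W = ⊤) :
    ∀ x ∈ Subgroup.centralizer (N : Set G), ∀ y ∈ Subgroup.centralizer (N : Set G), x * y = y * x := by
  classical
  let s : Set (Module.End (ZMod p) V) := endOf ρ '' (Subgroup.centralizer (N : Set G) : Set G)
  have hcomm : ∀ r ∈ Algebra.adjoin (ZMod p) s, ∀ n ∈ N, r * endOf ρ n = endOf ρ n * r := by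
    intro r hr n hn
    refine Algebra.adjoin_induction (p := fun X _ => X * endOf ρ n = endOf ρ n * X) ?_ ?_ ?_ ?_ hr
    · rintro _ ⟨a, ha, rfl⟩
      rw [← map_mul, ← map_mul, (Subgroup.mem_centralizer_iff.1 ha n hn).symm]
    · intro c
      exact Algebra.commutes c _
    · intro X Y _ _ hX hY
      rw [add_mul, mul_add, hX, hY]
    · intro X Y _ _ hX hY
      rw [mul_assoc, hY, ← mul_assoc, hX, mul_assoc]
  have hinj : ∀ r ∈ Algebra.adjoin (ZMod p) s, r ≠ 0 → Function.Injective r := by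
    intro r hr hr0
    have h1 := hirr (LinearMap.ker r) (by
      intro n hn v hv
      rw [LinearMap.mem_ker] at hv ⊢
      have h2 := LinearMap.congr_fun (hcomm r hr n hn) v
      change r (ρ n v) = ρ n (r v) at h2
      rw [h2, hv, map_zero])
    rcases h1 with h1 | h1
    · exact LinearMap.ker_eq_bot.1 h1
    · exact absurd (LinearMap.ker_eq_top.1 h1) hr0
  have hc := comm_of_adjoin s hinj
  intro x hx y hy
  have h1 := hc _ ⟨x, hx, rfl⟩ _ ⟨y, hy, rfl⟩
  rw [← map_mul, ← map_mul] at h1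
  apply hρ
  apply LinearEquiv.ext
  intro v
  exact LinearMap.congr_fun h1 v

end Irr

section Quat

open Cfsg.Agent.Lib.Frobenius.Zass

variable {p : ℕ} [hp : Fact p.Prime] {V : Type v} [AddCommGroup V] [Module (ZMod p) V] [Finite V]
  [Nontrivial V] {G : Type u} [Group G]

/-- A regular linear group acts fixed point freely on a nontrivial finite group. -/
theorem fpfAct_of_regular (ρ : G →* (V ≃ₗ[ZMod p] V))
    (hreg : ∀ v : V, v ≠ 0 → ∀ g : G, ρ g v = v → g = 1) : FpfAct G := by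
  classical
  haveI : Module.Finite (ZMod p) V := Module.Finite.of_finite
  let e : V ≃ₗ[ZMod p] (Fin (finrank (ZMod p) V) → ZMod p) := (Module.finBasis (ZMod p) V).equivFun
  let W := Fin (finrank (ZMod p) V) → ZMod p
  haveI : Nontrivial W := e.symm.toEquiv.nontrivial
  let φ : G →* MulAut (Multiplicative W) :=
    { toFun := fun g => AddEquiv.toMultiplicative ((e.symm.trans ((ρ g).trans e)).toAddEquiv)
      map_one' := by
        ext x
        simp
      map_mul' := by
        intro g h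
        ext x
        simp }
  refine ⟨Multiplicative W, inferInstance, inferInstance, inferInstance, φ, ?_⟩
  intro c hc n hn
  by_contra hn1
  set w : W := Multiplicative.toAdd n with hw
  have hw0 : e.symm w ≠ 0 := by
    intro h
    apply hn1
    have h1 : w = 0 := e.symm.injective (by rw [h, map_zero])
    exact h1
  apply hc
  apply hreg _ hw0
  have h2 : e (ρ c (e.symm w)) = w := congrArg Multiplicative.toAdd hn
  have h3 := congrArg e.symm h2
  simpa using h3

variable [Finite G]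

/-- The classification of minimal non-abelian normal subgroups. -/
theorem quat_or_sl25 (hF : FpfAct G) (A N : Subgroup G) [A.Normal] (hNn : N.Normal)
    (hAc : ∀ a ∈ A, ∀ b ∈ A, a * b = b * a)
    (hAmax : ∀ B : Subgroup G, B.Normal → (∀ x ∈ B, ∀ y ∈ B, x * y = y * x) → A ≤ B → B = A)
    (hNle : ∀ n ∈ N, ∀ a ∈ A, n * a = a * n)
    (hNna : ¬ ∀ x ∈ N, ∀ y ∈ N, x * y = y * x)
    (hNmin : ∀ M : Subgroup G, M.Normal → M ≤ N → (¬ ∀ x ∈ M, ∀ y ∈ M, x * y = y * x) → M = N) :
    Nonempty (N ≃* QuaternionGroup 2) ∨ Nonempty (N ≃* SL(2, ZMod 5)) := by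
  classical
  haveI := hNn
  have hNnt : Nontrivial N := by
    by_contra h
    rw [not_nontrivial_iff_subsingleton] at h
    apply hNna
    intro x hx y hy
    have : (⟨x, hx⟩ : N) = ⟨y, hy⟩ := Subsingleton.elim _ _
    have h2 : x = y := congrArg Subtype.val this
    rw [h2]
  let C : Subgroup G := ⁅N, N⁆
  have hCn : C.Normal := inferInstance
  have hCN : C ≤ N := Subgroup.commutator_le_self N
  by_cases hC : ∀ x ∈ C, ∀ y ∈ C, x * y = y * x
  · left
    -- `C ≤ A`
    have hCA : C ≤ A := by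
      have hB : (A ⊔ C).Normal := inferInstance
      have hsub : A ⊔ C = Subgroup.closure ((A : Set G) ∪ C) := by
        rw [Subgroup.closure_union, Subgroup.closure_eq, Subgroup.closure_eq]
      have habB : ∀ x ∈ A ⊔ C, ∀ y ∈ A ⊔ C, x * y = y * x := by
        rw [hsub]
        have hcm : ∀ a ∈ ((A : Set G) ∪ C), ∀ b ∈ ((A : Set G) ∪ C), a * b = b * a := by
          rintro a (ha | ha) b (hb | hb)
          · exact hAc a ha b hb
          · exact (hNle b (hCN hb) a ha).symm
          · exact hNle a (hCN ha) b hb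
          · exact hC a ha b hb
        have h := Subgroup.isMulCommutative_closure hcm
        intro x hx y hy
        exact congrArg Subtype.val (h.is_comm.comm (⟨x, hx⟩ : Subgroup.closure _) ⟨y, hy⟩)
      have h1 := hAmax _ hB habB le_sup_left
      rw [← h1]
      exact le_sup_right
    have hcent : ∀ s ∈ N, ∀ t ∈ N, ∀ u ∈ N, ⁅s, t⁆ * u = u * ⁅s, t⁆ := by
      intro s hs t ht u hu
      have h1 : ⁅s, t⁆ ∈ A := hCA (Subgroup.commutator_mem_commutator hs ht)
      exact (hNle u hu _ h1).symm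
    -- nilpotent
    have hnil : Group.IsNilpotent N := by
      refine Subgroup.isNilpotent_of_ker_le_center (Abelianization.of (G := N)) ?_
      rw [Abelianization.ker_of, commutator_def, Subgroup.commutator_le]
      rintro s - t -
      rw [Subgroup.mem_center_iff]
      intro u
      apply Subtype.ext
      exact (hcent s s.2 t t.2 u u.2).symm
    -- a non-abelian Sylow subgroup
    have hdecomp := (Group.isNilpotent_of_finite_tfae (G := N)).out 0 4
    obtain ⟨e⟩ := hdecomp.1 hnil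
    have hnorm := (Group.isNilpotent_of_finite_tfae (G := N)).out 0 3
    have hnormal := hnorm.1 hnil
    have hex : ∃ (q : ℕ) (_ : Fact q.Prime) (P : Sylow q N),
        ¬ ∀ x ∈ (P : Subgroup N), ∀ y ∈ (P : Subgroup N), x * y = y * x := by
      by_contra hall
      push Not at hall
      apply hNna
      intro x hx y hy
      have h1 : (⟨x, hx⟩ : N) * ⟨y, hy⟩ = ⟨y, hy⟩ * ⟨x, hx⟩ := by
        obtain ⟨a, ha⟩ := e.surjective ⟨x, hx⟩
        obtain ⟨b, hb⟩ := e.surjective ⟨y, hy⟩
        rw [← ha, ← hb, ← map_mul, ← map_mul]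
        congr 1
        funext q P
        apply Subtype.ext
        exact hall q (⟨(Nat.prime_of_mem_primeFactors q.2)⟩) P _ (a q P).2 _ (b q P).2
      exact congrArg Subtype.val h1
    obtain ⟨q, hq, P, hP⟩ := hex
    have hPs := hF.subgroup N
    have hsyl := hPs.sylow q (P : Subgroup N) P.2
    have hPcase : q = 2 ∧ ∃ n : ℕ, Nonempty ((P : Subgroup N) ≃* QuaternionGroup (2 ^ n)) := by
      rcases hsyl with h | h
      · exfalso
        apply hP
        intro x hx y hy
        have h1 := (IsCyclic.commGroup (α := (P : Subgroup N))).mul_comm ⟨x, hx⟩ ⟨y, hy⟩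
        exact congrArg Subtype.val h1
      · exact h
    obtain ⟨rfl, n, ⟨eP⟩⟩ := hPcase
    -- the image of `P` is normal in `G`
    have hPn := hnormal 2 hq P
    have hchar : (P : Subgroup N).Characteristic := P.characteristic_of_normal hPn
    let P₁ : Subgroup G := (P : Subgroup N).map N.subtype
    have hP₁n : P₁.Normal := by
      refine ⟨?_⟩
      rintro _ ⟨x, hx, rfl⟩ g
      let α : MulAut N := MulAut.conjNormal g
      have h1 : α x ∈ (P : Subgroup N) := by
        have h2 := (Subgroup.characteristic_iff_comap_le.1 hchar) α.symm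
        have h3 : α.symm (α x) ∈ (P : Subgroup N) := by
          rw [MulEquiv.symm_apply_apply]
          exact hx
        exact h2 h3
      exact ⟨α x, h1, rfl⟩
    have hP₁le : P₁ ≤ N := by
      rintro _ ⟨x, -, rfl⟩
      exact x.2
    have hP₁na : ¬ ∀ x ∈ P₁, ∀ y ∈ P₁, x * y = y * x := by
      intro hall
      apply hP
      intro x hx y hy
      apply Subtype.ext
      exact hall _ ⟨x, hx, rfl⟩ _ ⟨y, hy, rfl⟩
    have hP₁N := hNmin P₁ hP₁n hP₁le hP₁na
    -- so `N` is generalized quaternion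
    have hPtop : (P : Subgroup N) = ⊤ := by
      rw [eq_top_iff]
      intro x _
      have h1 : (x : G) ∈ P₁ := by
        rw [hP₁N]
        exact x.2
      obtain ⟨y, hy, hyx⟩ := h1
      have : y = x := Subtype.ext hyx
      rwa [← this]
    have eN : N ≃* QuaternionGroup (2 ^ n) :=
      (Subgroup.topEquiv.symm.trans (MulEquiv.subgroupCongr hPtop.symm)).trans eP
    -- class two forces `n = 1`
    have hcentQ : ∀ x y z : QuaternionGroup (2 ^ n), ⁅x, y⁆ * z = z * ⁅x, y⁆ := by
      intro x y z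
      have h1 := hcent _ (eN.symm x).2 _ (eN.symm y).2 _ (eN.symm z).2
      have h2 : ⁅eN.symm x, eN.symm y⁆ * eN.symm z = eN.symm z * ⁅eN.symm x, eN.symm y⁆ := by
        apply Subtype.ext
        exact h1
      have h3 := congrArg eN h2
      simpa [map_mul, map_commutatorElement] using h3
    have hnle : n ≤ 1 := by
      let s' : QuaternionGroup (2 ^ n) := QuaternionGroup.xa 0
      let t' : QuaternionGroup (2 ^ n) := QuaternionGroup.a 1
      have hst : s' * t' = t'⁻¹ * s' := by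
        have h1 : t'⁻¹ = QuaternionGroup.a (-1) := rfl
        rw [h1]
        simp [s', t', QuaternionGroup.xa_mul_a, QuaternionGroup.a_mul_xa]
      have h2 := hcentQ s' t' s'
      have h3 : ⁅s', t'⁆ = t'⁻¹ * t'⁻¹ := by
        rw [commutatorElement_def, hst]
        group
      rw [h3] at h2
      have h4 : s' * (t'⁻¹ * t'⁻¹) = t' * t' * s' := by
        have h5 : s' * t'⁻¹ = t' * s' := by
          have : s' = t' * s' * t' := by
            rw [mul_assoc, hst]
            group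
          nth_rw 1 [this]
          group
        calc s' * (t'⁻¹ * t'⁻¹) = (s' * t'⁻¹) * t'⁻¹ := by group
          _ = (t' * s') * t'⁻¹ := by rw [h5]
          _ = t' * (s' * t'⁻¹) := by rw [mul_assoc]
          _ = t' * (t' * s') := by rw [h5]
          _ = t' * t' * s' := by group
      rw [h4] at h2
      have h6 : t' ^ 4 = 1 := by
        have h7 := mul_right_cancel h2
        have h8 : t' ^ 4 = t' * t' * (t' * t') := by
          simp only [pow_succ, pow_zero, one_mul, mul_assoc]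
        rw [h8]
        nth_rw 2 [← h7]
        group
      have h9 : orderOf t' ∣ 4 := orderOf_dvd_of_pow_eq_one h6
      rw [QuaternionGroup.orderOf_a_one] at h9
      have h10 : 2 ^ (n + 1) ∣ 2 ^ 2 := by
        rw [pow_succ, mul_comm]
        exact h9
      have h11 := (Nat.pow_dvd_pow_iff_le_right (by norm_num)).1 h10
      omega
    have hn1 : n = 1 := by
      by_contra hne
      have hn0 : n = 0 := by omega
      subst hn0
      apply hNna
      intro x hx y hy
      have hc : IsCyclic (QuaternionGroup (2 ^ 0)) := QuaternionGroup.quaternionGroup_one_isCyclic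
      have h1 := (IsCyclic.commGroup (α := QuaternionGroup (2 ^ 0))).mul_comm (eN ⟨x, hx⟩) (eN ⟨y, hy⟩)
      have h2 : (⟨x, hx⟩ : N) * ⟨y, hy⟩ = ⟨y, hy⟩ * ⟨x, hx⟩ := by
        apply eN.injective
        rw [map_mul, map_mul]
        exact h1
      exact congrArg Subtype.val h2
    subst hn1
    exact ⟨eN⟩
  · right
    have h1 := hNmin C hCn hCN hC
    have h2 : commutator N = ⊤ := by
      apply Subgroup.map_injective N.subtype_injective
      rw [Subgroup.map_subtype_commutator, ← MonoidHom.range_eq_map, Subgroup.range_subtype]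
      exact h1
    exact hF.perfect_iso N.subtype N.subtype_injective h2

end Quat

end Cfsg.Agent.Lib.SolvLin
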