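import Mathlib
import Cfsg.Agent.Lib.SolvLin.Top
import Cfsg.Agent.Lib.SolvLin.BinTet

/-!
# Zassenhaus: subgroups of index two in solvable regular linear groups
-/

set_option autoImplicit false

namespace Cfsg.Agent.Lib.SolvLin

open Module
open scoped commutatorElement

universe u v

section GroupLemmas

variable {H : Type*} [Group H]

/-- Normalizing the sign in the relations. -/
theorem bt_of_sign {i j k c z : H} (hz : ∀ g, z * g = g * z) (hzz : z * z = 1) (hii : i * i = z)
    (hjj : j * j = z) (hji : j * i = z * (i * j)) (hc3 : c ^ 3 = 1) (hci : c * i = j * c)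
    (hcj : c * j = k * c) (hk : k = i * j ∨ k = z * (i * j)) (hz1 : z ≠ 1) :
    ∃ i' j' : H, BT i' j' c ∧ i' * i' ≠ 1 := by
  have hi4 : i ^ 4 = 1 := by
    have : i ^ 4 = i * i * (i * i) := by
      simp only [pow_succ, pow_zero, one_mul, mul_assoc]
    rw [this, hii, hzz]
  rcases hk with rfl | rfl
  · refine ⟨i, j, ⟨hi4, by rw [hjj, hii], by rw [hji, hii]; simp only [mul_assoc], hc3, hci, hcj⟩, ?_⟩
    rwa [hii]
  · have hzi : (z * i) * (z * i) = z := by
      calc (z * i) * (z * i) = z * (i * z) * i := by simp only [mul_assoc]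
        _ = z * (z * i) * i := by rw [hz i]
        _ = (z * z) * (i * i) := by simp only [mul_assoc]
        _ = z := by rw [hzz, hii, one_mul]
    have hzj : (z * j) * (z * j) = z := by
      calc (z * j) * (z * j) = z * (j * z) * j := by simp only [mul_assoc]
        _ = z * (z * j) * j := by rw [hz j]
        _ = (z * z) * (j * j) := by simp only [mul_assoc]
        _ = z := by rw [hzz, hjj, one_mul]
    have hzij : (z * i) * (z * j) = i * j := by
      calc (z * i) * (z * j) = z * (i * z) * j := by simp only [mul_assoc]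
        _ = z * (z * i) * j := by rw [hz i]
        _ = (z * z) * (i * j) := by simp only [mul_assoc]
        _ = i * j := by rw [hzz, one_mul]
    refine ⟨z * i, z * j, ⟨?_, ?_, ?_, hc3, ?_, ?_⟩, ?_⟩
    · have : (z * i) ^ 4 = (z * i) * (z * i) * ((z * i) * (z * i)) := by
        simp only [pow_succ, pow_zero, one_mul, mul_assoc]
      rw [this, hzi, hzz]
    · rw [hzi, hzj]
    · rw [hzi]
      calc (z * j) * (z * i) = z * (j * z) * i := by simp only [mul_assoc]
        _ = z * (z * j) * i := by rw [hz j]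
        _ = (z * z) * (j * i) := by simp only [mul_assoc]
        _ = z * (i * j) := by rw [hzz, one_mul, hji]
        _ = z * ((z * i) * (z * j)) := by rw [hzij]
        _ = z * (z * i) * (z * j) := by simp only [mul_assoc]
    · calc c * (z * i) = (c * z) * i := by simp only [mul_assoc]
        _ = (z * c) * i := by rw [hz c]
        _ = z * (c * i) := by simp only [mul_assoc]
        _ = z * (j * c) := by rw [hci]
        _ = z * j * c := by simp only [mul_assoc]
    · calc c * (z * j) = (c * z) * j := by simp only [mul_assoc]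
        _ = (z * c) * j := by rw [hz c]
        _ = z * (c * j) := by simp only [mul_assoc]
        _ = z * (z * (i * j) * c) := by rw [hcj]
        _ = (z * z) * (i * j) * c := by simp only [mul_assoc]
        _ = (i * j) * c := by rw [hzz, one_mul]
        _ = (z * i) * (z * j) * c := by rw [hzij]
    · rwa [hzi]

end GroupLemmas

section Form

variable {G : Type u} [Group G] {A N : Subgroup G} {r : ℕ} {M : Type u} [AddCommGroup M]
  [Module (ZMod r) M] [Finite M]

/-- The action on the nonzero vectors of the section. -/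
def permHom (D : FormData A N r M) : G →* Equiv.Perm {u : M // u ≠ 0} :=
  { toFun := fun g =>
      { toFun := fun u => ⟨D.act g u.1, fun h => u.2 ((D.act g).injective (by rw [h, map_zero]))⟩
        invFun := fun u => ⟨D.act g⁻¹ u.1, fun h => u.2 ((D.act g⁻¹).injective (by rw [h, map_zero]))⟩
        left_inv := fun u => Subtype.ext (by
          change D.act g⁻¹ (D.act g u.1) = u.1
          rw [← LinearEquiv.mul_apply, ← map_mul, inv_mul_cancel, map_one]
          rfl)
        right_inv := fun u => Subtype.ext (by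
          change D.act g (D.act g⁻¹ u.1) = u.1
          rw [← LinearEquiv.mul_apply, ← map_mul, mul_inv_cancel, map_one]
          rfl) }
    map_one' := by
      ext u
      simp
    map_mul' := by
      intro g h
      ext u
      simp }

theorem permHom_ker_le (D : FormData A N r M) (hker : ∀ c : G, (∀ u, D.act c u = u) → c ∈ N) :
    (permHom D).ker ≤ N := by
  intro c hc
  apply hker
  intro u
  by_cases hu : u = 0
  · rw [hu, map_zero]
  · have h1 : permHom D c = 1 := hc
    have h2 := congrArg (fun f : Equiv.Perm {u : M // u ≠ 0} => (f ⟨u, hu⟩ : {u : M // u ≠ 0}).1) h1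
    exact h2

/-- An even index gives a subgroup of index two. -/
theorem index_two_of_even (D : FormData A N r M) (hM : Nat.card M = 4)
    (hker : ∀ c : G, (∀ u, D.act c u = u) → c ∈ N) (hev : 2 ∣ N.index) :
    ∃ L : Subgroup G, L.Normal ∧ L.index = 2 := by
  classical
  haveI := Fintype.ofFinite M
  let Φ := permHom D
  have hcX : Fintype.card {u : M // u ≠ 0} = 3 := by
    rw [Fintype.card_subtype_compl, Fintype.card_subtype_eq, ← Nat.card_eq_fintype_card, hM]
  let f : G →* ℤˣ := Equiv.Perm.sign.comp Φ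
  by_cases hs : ∃ y, f y ≠ 1
  · obtain ⟨y, hy⟩ := hs
    refine ⟨f.ker, inferInstance, ?_⟩
    rw [Subgroup.index_ker]
    have hsurj : Function.Surjective f := by
      intro u
      rcases Int.units_eq_one_or u with rfl | rfl
      · exact ⟨1, map_one f⟩
      · refine ⟨y, ?_⟩
        rcases Int.units_eq_one_or (f y) with h | h
        · exact absurd h hy
        · exact h
    rw [MonoidHom.range_eq_top.2 hsurj, Subgroup.card_top, Nat.card_eq_fintype_card,
      Fintype.card_units_int]
  · exfalso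
    push Not at hs
    have hle : Φ.range ≤ alternatingGroup {u : M // u ≠ 0} := by
      rintro _ ⟨y, rfl⟩
      exact Equiv.Perm.mem_alternatingGroup.2 (hs y)
    haveI : Nontrivial {u : M // u ≠ 0} := by
      rw [← Fintype.one_lt_card_iff_nontrivial, hcX]
      norm_num
    have hA3 : Nat.card (alternatingGroup {u : M // u ≠ 0}) = 3 := by
      have h1 := two_mul_card_alternatingGroup (α := {u : M // u ≠ 0})
      rw [Fintype.card_perm, hcX] at h1
      rw [Nat.card_eq_fintype_card]
      have h6 : Nat.factorial 3 = 6 := rfl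
      rw [h6] at h1
      omega
    have h1 : Nat.card Φ.range ∣ 3 := by
      rw [← hA3]
      exact Subgroup.card_dvd_of_le hle
    have h2 : N.index ∣ Φ.ker.index := Subgroup.index_dvd_of_le (permHom_ker_le D hker)
    rw [Subgroup.index_ker] at h2
    have h3 := hev.trans (h2.trans h1)
    norm_num at h3

/-- Four vectors in a plane over `F₂`. -/
theorem four_elements [Fact (Nat.Prime 2)] {M₂ : Type*} [AddCommGroup M₂] [Module (ZMod 2) M₂] [Finite M₂]
    (hM : Nat.card M₂ = 4) {u v : M₂} (hu : u ≠ 0) (hv : v ≠ 0) (huv : u ≠ v) (x : M₂) :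
    x = 0 ∨ x = u ∨ x = v ∨ x = u + v := by
  classical
  haveI := Fintype.ofFinite M₂
  have h2 : ∀ w : M₂, w + w = 0 := fun w => ZModModule.add_self w
  have huv0 : u + v ≠ 0 := by
    intro h
    apply huv
    have : u + v = v + v := by rw [h, h2]
    exact add_right_cancel this
  have hne1 : u + v ≠ u := by
    intro h
    exact hv (by simpa using h)
  have hne2 : u + v ≠ v := by
    intro h
    exact hu (by simpa using h)
  let F : Finset M₂ := {0, u, v, u + v}
  have hF : F.card = 4 := by
    rw [Finset.card_insert_of_notMem, Finset.card_insert_of_notMem, Finset.card_insert_of_notMem,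
      Finset.card_singleton]
    · simp [hne2.symm]
    · simp [huv, hne1.symm]
    · simp [hu.symm, hv.symm, huv0.symm]
  have hall : F = Finset.univ := by
    apply Finset.eq_univ_of_card
    rw [hF, ← Nat.card_eq_fintype_card, hM]
  have hx : x ∈ F := by
    rw [hall]
    exact Finset.mem_univ x
  simpa [F] using hx

end Form

section Setup3

variable {p : ℕ} [hp : Fact p.Prime] {V : Type v} [AddCommGroup V] [Module (ZMod p) V] [Finite V]
  [Nontrivial V] {G : Type u} [Group G] [Finite G]
  {ρ : G →* (V ≃ₗ[ZMod p] V)} {A : Subgroup G} [A.Normal]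
  {K : Type v} [Field K] [Algebra (ZMod p) K] [Finite K]
  {ψ : K →ₐ[ZMod p] Module.End (ZMod p) V}
  [Module K V]

theorem Setup.rho_smul (S : Setup ρ A ψ) (σ : G →* (K ≃ₐ[ZMod p] K))
    (hσ : ∀ g k, ψ (σ g k) = endOf ρ g * ψ k * endOf ρ g⁻¹) (g : G) (k : K) (v : V) :
    ρ g (k • v) = σ g k • ρ g v := by
  rw [S.act, S.act, hσ]
  change ρ g (ψ k v) = ρ g (ψ k (ρ g⁻¹ (ρ g v)))
  congr 2
  rw [← LinearEquiv.mul_apply, ← map_mul, inv_mul_cancel, map_one]
  rfl

/-- The quadratic character gives a subgroup of index two in dimension one. -/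
theorem Setup.index_two_of_one (S : Setup ρ A ψ) (hm : finrank K V = 1) (hp2 : p ≠ 2) :
    ∃ N : Subgroup G, N.Normal ∧ N.index = 2 := by
  classical
  obtain ⟨v₀, hv₀⟩ := exists_ne (0 : V)
  have hspan := (finrank_eq_one_iff_of_nonzero' v₀ hv₀).1 hm
  obtain ⟨σ, hσ⟩ := exists_sigma ρ A ψ S.ψinj S.range
  choose a ha using fun g => hspan (ρ g v₀)
  have ha0 : ∀ g, a g ≠ 0 := by
    intro g h0
    have := ha g
    rw [h0, zero_smul] at this
    exact hv₀ ((ρ g).injective (by rw [← this, map_zero]))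
  have hinj : ∀ k k' : K, k • v₀ = k' • v₀ → k = k' := by
    intro k k' h
    exact smul_left_injective K hv₀ h
  have hmul : ∀ g h, a (g * h) = σ g (a h) * a g := by
    intro g h
    apply hinj
    rw [ha, map_mul, LinearEquiv.mul_apply, ← ha h, S.rho_smul σ hσ, ← ha g, smul_smul]
  haveI := Fintype.ofFinite K
  haveI : CharP K p := charP_of_injective_algebraMap (algebraMap (ZMod p) K).injective p
  have hchar : ringChar K ≠ 2 := by
    rw [ringChar.eq K p]
    exact hp2
  let χ := quadraticChar K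
  have hχσ : ∀ (τ : K ≃ₐ[ZMod p] K) (k : K), χ (τ k) = χ k := by
    intro τ k
    have h1 : IsSquare (τ k) ↔ IsSquare k := by
      constructor
      · intro h
        have := h.map τ.symm
        simpa using this
      · intro h
        exact h.map τ
    simp only [χ, quadraticChar_apply, quadraticCharFun, map_eq_zero_iff τ τ.injective, h1]
  let f : G →* ℤˣ := MonoidHom.mk' (fun g => χ.toUnitHom (Units.mk0 (a g) (ha0 g))) (by
    intro g h
    apply Units.ext
    simp only [Units.val_mul, MulChar.coe_toUnitHom, Units.val_mk0]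
    rw [hmul, map_mul, hχσ, mul_comm])
  have hf : ∀ g, ((f g : ℤˣ) : ℤ) = χ (a g) := fun g => by
    change ((χ.toUnitHom (Units.mk0 (a g) (ha0 g)) : ℤˣ) : ℤ) = _
    rw [MulChar.coe_toUnitHom, Units.val_mk0]
  obtain ⟨k, hk⟩ := FiniteField.exists_nonsquare hchar
  have hk0 : k ≠ 0 := by
    rintro rfl
    exact hk (IsSquare.zero)
  have hkv : k • v₀ ≠ 0 := smul_ne_zero hk0 hv₀
  obtain ⟨y, hy⟩ := S.trans v₀ (k • v₀) hv₀ hkv
  have hay : a y = k := by
    apply hinj
    rw [ha, hy]
  have hfy : f y = -1 := by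
    apply Units.ext
    rw [hf, hay, Units.val_neg, Units.val_one]
    exact (quadraticChar_neg_one_iff_not_isSquare).2 hk
  refine ⟨f.ker, inferInstance, ?_⟩
  rw [Subgroup.index_ker]
  have hsurj : Function.Surjective f := by
    intro u
    rcases Int.units_eq_one_or u with rfl | rfl
    · exact ⟨1, map_one f⟩
    · exact ⟨y, hfy⟩
  rw [MonoidHom.range_eq_top.2 hsurj, Subgroup.card_top, Nat.card_eq_fintype_card,
    Fintype.card_units_int]

omit [Finite V] [Nontrivial V] [Finite G] in
/-- Unique involution in a regular group. -/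
theorem inv_unique (ρ : G →* (V ≃ₗ[ZMod p] V)) (hρ : Function.Injective ρ)
    (hreg : ∀ v : V, v ≠ 0 → ∀ g : G, ρ g v = v → g = 1) {t t' : G} (ht : t ^ 2 = 1) (ht' : t' ^ 2 = 1)
    (h1 : t ≠ 1) (h1' : t' ≠ 1) : t = t' := by
  have key : ∀ s : G, s ^ 2 = 1 → s ≠ 1 → ∀ v, ρ s v = -v := by
    intro s hs hs1 v
    have h2 : ρ s (ρ s v) = v := by
      rw [← LinearEquiv.mul_apply, ← map_mul, ← sq, hs, map_one]
      rfl
    have h3 : ρ s (v + ρ s v) = v + ρ s v := by
      rw [map_add, h2, add_comm]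
    by_cases h4 : v + ρ s v = 0
    · exact eq_neg_of_add_eq_zero_right h4
    · exact absurd (hreg _ h4 s h3) hs1
  apply hρ
  apply LinearEquiv.ext
  intro v
  rw [key t ht h1, key t' ht' h1']

variable [Group.IsSolvable G]

/-- The relations of `SL(2,3)` in the exceptional regular case. -/
theorem Setup.exists_BT (S : Setup ρ A ψ) (hreg : ∀ v : V, v ≠ 0 → ∀ g : G, ρ g v = v → g = 1)
    (hf : finrank (ZMod p) K = 1) (hm : finrank K V = 2) {N : Subgroup G} (hG : Good A N 2)
    (hcN : Nat.card N = finrank K V ^ 2 * Nat.card A) (o : ℕ) (ho : Odd o) (hAo : Nat.card A = 2 * o)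
    (h3 : 3 ∣ Nat.card G) (h3N : ¬ 3 ∣ Nat.card N) :
    ∃ i j c : G, BT i j c ∧ i * i ≠ 1 := by
  classical
  haveI h2fact : Fact (Nat.Prime 2) := ⟨Nat.prime_two⟩
  haveI h3fact : Fact (Nat.Prime 3) := ⟨Nat.prime_three⟩
  obtain ⟨M, i1, i2, i3, D, hM⟩ := exists_formData ρ A ψ S.inj S.ψinj S.range S.act S.max hG
  have hcM : Nat.card M = 4 := by
    have h1 := D.card
    rw [hcN, hm] at h1
    have h2 := Nat.eq_of_mul_eq_mul_right Nat.card_pos h1
    omega
  have hcentral := S.centralizes_of_f_one hf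
  -- the involution
  obtain ⟨z₀, hz₀⟩ := exists_prime_orderOf_dvd_card' (G := A) 2 D.dvd
  set z : G := (z₀ : G) with hzdef
  have hzA : z ∈ A := z₀.2
  have hzo : orderOf z = 2 := by rw [hzdef, Subgroup.orderOf_coe, hz₀]
  have hz2 : z ^ 2 = 1 := by rw [← hzo]; exact pow_orderOf_eq_one z
  have hz1 : z ≠ 1 := by
    rintro h
    rw [h, orderOf_one] at hzo
    omega
  have hzz : z * z = 1 := by rw [← sq, hz2]
  have hzc : ∀ g, z * g = g * z := fun g => (hcentral g z hzA).symm
  have hinv : ∀ t : G, t ^ 2 = 1 → t ≠ 1 → t = z := fun t ht ht1 =>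
    inv_unique ρ S.inj hreg ht hz2 ht1 hz1
  -- the element `i`
  obtain ⟨i, hiN, hiA, hii⟩ : ∃ i ∈ N, i ∉ A ∧ i * i = z := by
    obtain ⟨t, htN, htA⟩ := SetLike.exists_of_lt hG.lt
    obtain ⟨k, hk⟩ := ho
    have hta : t ^ 2 ∈ A := hG.exp t htN
    have hform : t ^ o = t * (t ^ 2) ^ k := by
      rw [hk, ← pow_mul, pow_succ']
    refine ⟨t ^ o, N.pow_mem htN o, ?_, ?_⟩
    · intro hmem
      apply htA
      have h1 : t = t ^ o * ((t ^ 2) ^ k)⁻¹ := by rw [hform]; group
      rw [h1]
      exact A.mul_mem hmem (A.inv_mem (A.pow_mem hta k))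
    · have hsq : t ^ o * t ^ o = (t ^ 2) ^ o := by
        rw [← pow_add, ← pow_mul]
        congr 1
        ring
      have h1 : ((t ^ 2) ^ o) ^ 2 = 1 := by
        have h2 : (⟨t ^ 2, hta⟩ : A) ^ (Nat.card A) = 1 := pow_card_eq_one'
        have h3 : (t ^ 2) ^ (Nat.card A) = 1 := congrArg Subtype.val h2
        rw [← pow_mul, mul_comm, ← hAo]
        exact h3
      rw [hsq]
      apply hinv _ h1
      intro h4
      have h5 : (t ^ o) ^ 2 = 1 := by
        rw [sq, hsq, h4]
      have hto1 : t ^ o ≠ 1 := by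
        intro h6
        apply htA
        have h7 : t = t ^ o * ((t ^ 2) ^ k)⁻¹ := by rw [hform]; group
        rw [h7, h6, one_mul]
        exact A.inv_mem (A.pow_mem hta k)
      have h6 := hinv _ h5 hto1
      apply htA
      have h7 : t = t ^ o * ((t ^ 2) ^ k)⁻¹ := by rw [hform]; group
      rw [h7, h6]
      exact A.mul_mem hzA (A.inv_mem (A.pow_mem hta k))
  -- the element `c`
  obtain ⟨c, hco⟩ := exists_prime_orderOf_dvd_card' (G := G) 3 h3
  have hc3 : c ^ 3 = 1 := by rw [← hco]; exact pow_orderOf_eq_one c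
  have hcN' : c ∉ N := by
    intro hmem
    apply h3N
    have h1 : orderOf (⟨c, hmem⟩ : N) ∣ Nat.card N := orderOf_dvd_natCard _
    rwa [Subgroup.orderOf_mk, hco] at h1
  have hcard' : finrank K V ^ 2 * Nat.card A ≤ Nat.card N := hcN.ge
  have hker : ∀ c : G, (∀ u, D.act c u = u) → c ∈ N := fun c hc =>
    mem_of_comm_mem ρ A ψ S.inj S.ψinj S.range S.act S.comm S.max hG hcard'
      (S.centralizes_of_f_one hf c) (D.comm_mem_of_fix hG.normal hc)
  set α := D.act c with hα
  have hα3 : ∀ u, α (α (α u)) = u := by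
    intro u
    have h1 : D.act (c ^ 3) u = u := by rw [hc3, map_one]; rfl
    rw [pow_succ, pow_two, map_mul, map_mul] at h1
    exact h1
  have h2M : ∀ w : M, w + w = 0 := fun w => ZModModule.add_self w
  have hαinj : ∀ {u v}, α u = α v → u = v := fun {u v} h => α.injective h
  have hnofix : ∀ u, u ≠ 0 → α u ≠ u := by
    intro u hu hfix
    apply hcN'
    apply hker
    intro v
    by_contra hv
    have hv0 : v ≠ 0 := by
      rintro rfl
      exact hv (map_zero _)
    have huv : u ≠ v := by
      rintro rfl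
      exact hv hfix
    have hαv0 : α v ≠ 0 := fun h => hv0 (α.injective (by rw [h, map_zero]))
    rcases four_elements hcM hu hv0 huv (α v) with h | h | h | h
    · exact hαv0 h
    · exact huv (hαinj (by rw [hfix, h]))
    · exact hv h
    · have h1 : α (α v) = v := by
        rw [h, map_add, hfix, h, ← add_assoc, h2M, zero_add]
      have h2 := hα3 v
      rw [h1] at h2
      exact hv h2
  -- the elements `j` and `k`
  have hNn := hG.normal
  set j : G := c * i * c⁻¹ with hj
  have hjN : j ∈ N := hNn.conj_mem i hiN c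
  set k : G := c * j * c⁻¹ with hk
  have hkN : k ∈ N := hNn.conj_mem j hjN c
  have hu1 : D.π ⟨i, hiN⟩ ≠ 0 := fun h => hiA ((D.zero _).1 h)
  have hu2 : D.π ⟨j, hjN⟩ = α (D.π ⟨i, hiN⟩) := (D.act_π c ⟨i, hiN⟩ ⟨j, hjN⟩ rfl).symm
  have hu3 : D.π ⟨k, hkN⟩ = α (D.π ⟨j, hjN⟩) := (D.act_π c ⟨j, hjN⟩ ⟨k, hkN⟩ rfl).symm
  set u₁ := D.π ⟨i, hiN⟩ with hu₁
  set u₂ := D.π ⟨j, hjN⟩ with hu₂
  set u₃ := D.π ⟨k, hkN⟩ with hu₃
  have hu20 : u₂ ≠ 0 := by
    rw [hu2]
    exact fun h => hu1 (α.injective (by rw [h, map_zero]))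
  have hu30 : u₃ ≠ 0 := by
    rw [hu3]
    exact fun h => hu20 (α.injective (by rw [h, map_zero]))
  have h12 : u₁ ≠ u₂ := by
    rw [hu2]
    exact (hnofix _ hu1).symm
  have hu3sum : u₃ = u₁ + u₂ := by
    rcases four_elements hcM hu1 hu20 h12 u₃ with h | h | h | h
    · exact absurd h hu30
    · exfalso
      have h1 := hα3 u₁
      rw [← hu2, ← hu3, h, ← hu2] at h1
      exact h12 h1.symm
    · exfalso
      rw [hu3] at h
      exact hnofix _ hu20 h
    · exact h
  -- commutation
  have hcz : c * z * c⁻¹ = z := by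
    rw [← hzc c]
    group
  have hgz : ∀ g : G, g * z * g⁻¹ = z := by
    intro g
    rw [← hzc g]
    group
  have hjj : j * j = z := by
    calc j * j = c * (i * i) * c⁻¹ := by rw [hj]; group
      _ = z := by rw [hii, hcz]
  have hkk : k * k = z := by
    calc k * k = c * (j * j) * c⁻¹ := by rw [hk]; group
      _ = z := by rw [hjj, hcz]
  -- `j * i`
  have hji : j * i = z * (i * j) := by
    set a₂ := j * i * j⁻¹ * i⁻¹ with ha₂
    have ha₂A : a₂ ∈ A := hG.comm j hjN i hiN
    have ha₂c : ∀ g, a₂ * g = g * a₂ := fun g => (hcentral g a₂ ha₂A).symm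
    have hjia : j * i = a₂ * (i * j) := by
      rw [ha₂]
      group
    have h1 : a₂ ≠ 1 := by
      intro h
      rw [h, one_mul] at hjia
      have h2 : D.B u₂ u₁ = 0 := (D.bzero ⟨j, hjN⟩ ⟨i, hiN⟩).2 hjia
      apply hu20
      apply D.nd
      intro v
      rcases four_elements hcM hu1 hu20 h12 v with h | h | h | h
      · rw [h, map_zero]
      · rw [h, h2]
      · rw [h, D.alt]
      · rw [h, map_add, h2, D.alt, add_zero]
    have h2 : a₂ ^ 2 = 1 := by
      have h3 : (j * i * j⁻¹) * (j * i * j⁻¹) = z := by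
        calc (j * i * j⁻¹) * (j * i * j⁻¹) = j * (i * i) * j⁻¹ := by group
          _ = z := by rw [hii, hgz]
      have h4 : j * i * j⁻¹ = a₂ * i := by
        rw [ha₂]
        group
      rw [h4] at h3
      have h5 : a₂ * i * (a₂ * i) = a₂ ^ 2 * z := by
        calc a₂ * i * (a₂ * i) = a₂ * (i * a₂) * i := by group
          _ = a₂ * (a₂ * i) * i := by rw [ha₂c i]
          _ = a₂ * a₂ * (i * i) := by group
          _ = _ := by rw [hii, sq]
      rw [h5] at h3
      exact mul_right_cancel (h3.trans (one_mul z).symm)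
    have h3 := hinv a₂ h2 h1
    rw [hjia, h3]
  -- `k`
  have hk' : k = i * j ∨ k = z * (i * j) := by
    set a₁ := k * (i * j)⁻¹ with ha₁
    have hijN : i * j ∈ N := N.mul_mem hiN hjN
    have ha₁N : a₁ ∈ N := N.mul_mem hkN (N.inv_mem hijN)
    have ha₁A : a₁ ∈ A := by
      apply (D.zero ⟨a₁, ha₁N⟩).1
      have h1 : D.π ⟨a₁, ha₁N⟩ + D.π ⟨i * j, hijN⟩ = D.π ⟨k, hkN⟩ := by
        rw [← D.add]
        congr 1
        apply Subtype.ext
        change a₁ * (i * j) = k
        rw [ha₁]
        group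
      have h2 : D.π ⟨i * j, hijN⟩ = u₁ + u₂ := by
        have := D.add ⟨i, hiN⟩ ⟨j, hjN⟩
        exact this
      rw [h2, ← hu₃, hu3sum] at h1
      exact add_eq_right.1 h1
    have ha₁c : ∀ g, a₁ * g = g * a₁ := fun g => (hcentral g a₁ ha₁A).symm
    have hka : k = a₁ * (i * j) := by
      rw [ha₁]
      group
    have hijij : (i * j) * (i * j) = z := by
      calc (i * j) * (i * j) = i * (j * i) * j := by group
        _ = i * (z * (i * j)) * j := by rw [hji]
        _ = (i * z) * i * (j * j) := by group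
        _ = (z * i) * i * (j * j) := by rw [hzc i]
        _ = z * (i * i) * (j * j) := by group
        _ = z := by
          rw [hii, hjj, hzz, one_mul]
    have h2 : a₁ ^ 2 = 1 := by
      have h5 : k * k = a₁ ^ 2 * z := by
        calc k * k = a₁ * (i * j) * (a₁ * (i * j)) := by rw [hka]
          _ = a₁ * ((i * j) * a₁) * (i * j) := by group
          _ = a₁ * (a₁ * (i * j)) * (i * j) := by rw [ha₁c (i * j)]
          _ = a₁ * a₁ * ((i * j) * (i * j)) := by group
          _ = _ := by rw [hijij, sq]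
      rw [hkk] at h5
      exact mul_right_cancel ((h5.symm).trans (one_mul z).symm)
    by_cases h1 : a₁ = 1
    · left
      rw [hka, h1, one_mul]
    · right
      rw [hka, hinv a₁ h2 h1]
  obtain ⟨i', j', hB, hne⟩ := bt_of_sign hzc hzz hii hjj hji hc3
    (show c * i = j * c by rw [hj]; group) (show c * j = k * c by rw [hk]; group) hk' hz1
  exact ⟨i', j', c, hB, hne⟩

/-- The second statement of Zassenhaus, for a fixed exceptional `p`. -/
theorem Setup.zass_two (S : Setup ρ A ψ) (hreg : ∀ v : V, v ≠ 0 → ∀ g : G, ρ g v = v → g = 1)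
    (hf : finrank (ZMod p) K = 1) (hm : finrank K V = 2) {N : Subgroup G} (hG : Good A N 2)
    (hcN : Nat.card N = finrank K V ^ 2 * Nat.card A)
    (hp5 : p = 5 ∨ p = 7 ∨ p = 11 ∨ p = 23) :
    (∃ L : Subgroup G, L.Normal ∧ L.index = 2) ∨
      (p = 5 ∧ Nonempty (G ≃* SL23)) ∨ (p = 11 ∧ Nonempty (G ≃* SL23 × Multiplicative (ZMod 5))) := by
  classical
  haveI h2fact : Fact (Nat.Prime 2) := ⟨Nat.prime_two⟩
  obtain ⟨M, i1, i2, i3, D, hM⟩ := exists_formData ρ A ψ S.inj S.ψinj S.range S.act S.max hG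
  have hcM : Nat.card M = 4 := by
    have h1 := D.card
    rw [hcN, hm] at h1
    have h2 := Nat.eq_of_mul_eq_mul_right Nat.card_pos h1
    omega
  have hker : ∀ c : G, (∀ u, D.act c u = u) → c ∈ N := fun c hc =>
    mem_of_comm_mem ρ A ψ S.inj S.ψinj S.range S.act S.comm S.max hG hcN.ge
      (S.centralizes_of_f_one hf c) (D.comm_mem_of_fix hG.normal hc)
  have hidx : N.index ∣ 6 := by
    have := index_dvd_factorial D hker
    rw [hcM] at this
    exact this
  have hidxle : N.index ≤ 6 := Nat.le_of_dvd (by norm_num) hidx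
  have hcG := card_of_regular ρ S.trans hreg
  rw [S.card_V, hf, hm] at hcG
  have hAd := S.card_A.2
  rw [hf, pow_one] at hAd
  have h2A := D.dvd
  have hmul := Subgroup.card_mul_index N
  rw [hcN, hm, hcG] at hmul
  have hA0 : 0 < Nat.card A := Nat.card_pos
  set x := Nat.card A with hx
  set g := N.index with hg
  have heven : 2 ∣ g → (∃ L : Subgroup G, L.Normal ∧ L.index = 2) :=
    fun h => index_two_of_even D hcM hker h
  rcases hp5 with rfl | rfl | rfl | rfl
  · -- `p = 5`
    have hxle : x ≤ 4 := Nat.le_of_dvd (by norm_num) hAd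
    have hx2 : x = 2 := by
      interval_cases x
      · omega
      · rfl
      · omega
      · exfalso
        omega
    have hg3 : g = 3 := by
      rw [hx2] at hmul
      omega
    right
    left
    refine ⟨rfl, ?_⟩
    obtain ⟨i, j, c, hB, hne⟩ := S.exists_BT hreg hf hm hG hcN 1 odd_one (by rw [← hx, hx2])
      (by rw [hcG]; norm_num) (by rw [hcN, hm, hx2]; norm_num)
    exact mulEquiv_SL23 hB hne (by rw [hcG]; norm_num)
  · -- `p = 7`
    have hxle : x ≤ 6 := Nat.le_of_dvd (by norm_num) hAd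
    left
    apply heven
    interval_cases x <;> first | omega | (exfalso; revert hAd; norm_num; done)
  · -- `p = 11`
    have hxle : x ≤ 10 := Nat.le_of_dvd (by norm_num) hAd
    have hx10 : x = 10 := by
      interval_cases x <;> first | rfl | omega | (exfalso; revert hAd; norm_num; done)
    have hg3 : g = 3 := by
      rw [hx10] at hmul
      omega
    right
    right
    refine ⟨rfl, ?_⟩
    obtain ⟨i, j, c, hB, hne⟩ := S.exists_BT hreg hf hm hG hcN 5 (by decide) (by rw [← hx, hx10])
      (by rw [hcG]; norm_num) (by rw [hcN, hm, hx10]; norm_num)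
    haveI h5fact : Fact (Nat.Prime 5) := ⟨by norm_num⟩
    obtain ⟨a₅, ha₅⟩ := exists_prime_orderOf_dvd_card' (G := A) 5 (by rw [← hx, hx10]; norm_num)
    have hZ : Nat.card (Subgroup.zpowers (a₅ : G)) = 5 := by
      rw [Nat.card_zpowers, Subgroup.orderOf_coe, ha₅]
    refine mulEquiv_SL23_prod hB hne (by rw [hcG]; norm_num) (Subgroup.zpowers (a₅ : G)) ?_ hZ
    intro a ha g'
    have haA : a ∈ A := (Subgroup.zpowers_le.2 a₅.2) ha
    exact (S.centralizes_of_f_one hf g' a haA).symm
  · -- `p = 23`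
    have hxle : x ≤ 22 := Nat.le_of_dvd (by norm_num) hAd
    left
    apply heven
    interval_cases x <;> first | omega | (exfalso; revert hAd; norm_num; done)

end Setup3

section Final2

variable {p : ℕ} [hp : Fact p.Prime] {V : Type v} [AddCommGroup V] [Module (ZMod p) V] [Finite V]
  [Nontrivial V] {G : Type u} [Group G] [Finite G] [Group.IsSolvable G]

/-- **Zassenhaus' theorem, second statement.** -/
theorem zassenhaus_index_two (ρ : G →* (V ≃ₗ[ZMod p] V)) (hρ : Function.Injective ρ)
    (htrans : ∀ v w : V, v ≠ 0 → w ≠ 0 → ∃ g : G, ρ g v = w)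
    (hreg : ∀ v : V, v ≠ 0 → ∀ g : G, ρ g v = v → g = 1) (hp2 : p ≠ 2) :
    (∃ L : Subgroup G, L.Normal ∧ L.index = 2) ∨
      (Nat.card V = 25 ∧ Nonempty (G ≃* SL23)) ∨
      (Nat.card V = 121 ∧ Nonempty (G ≃* SL23 × Multiplicative (ZMod 5))) := by
  obtain ⟨A, hA, K, i1, i2, i3, ψ, i4, S⟩ := exists_setup ρ hρ htrans
  rcases S.core with hm | ⟨hf, ⟨N, hG, hcN⟩, h⟩
  · exact Or.inl (S.index_two_of_one hm hp2)
  rcases h with ⟨hm, h2, h3⟩ | ⟨hm, h3⟩
  · have hV : Nat.card V = p ^ 2 := by
      rw [S.card_V, hf, hm, one_mul]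
    rcases prime_of_dvd24 hp.out h2 h3 with hp3 | hp5 | hp7 | hp11 | hp23
    · subst hp3
      exact (S.not_of_regular hreg hf hG hcN (Or.inl ⟨hm, rfl⟩)).elim
    · subst hp5
      rcases S.zass_two hreg hf hm hG hcN (Or.inl rfl) with h | ⟨-, h⟩ | ⟨h0, -⟩
      · exact Or.inl h
      · exact Or.inr (Or.inl ⟨by rw [hV]; norm_num, h⟩)
      · omega
    · subst hp7
      rcases S.zass_two hreg hf hm hG hcN (Or.inr (Or.inl rfl)) with h | ⟨h0, -⟩ | ⟨h0, -⟩
      · exact Or.inl h
      · omega
      · omega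
    · subst hp11
      rcases S.zass_two hreg hf hm hG hcN (Or.inr (Or.inr (Or.inl rfl))) with h | ⟨h0, -⟩ | ⟨-, h⟩
      · exact Or.inl h
      · omega
      · exact Or.inr (Or.inr ⟨by rw [hV]; norm_num, h⟩)
    · subst hp23
      rcases S.zass_two hreg hf hm hG hcN (Or.inr (Or.inr (Or.inr rfl))) with h | ⟨h0, -⟩ | ⟨h0, -⟩
      · exact Or.inl h
      · omega
      · omega
  · exact (S.not_of_regular hreg hf hG hcN (Or.inr ⟨hm, h3⟩)).elim

end Final2

end Cfsg.Agent.Lib.SolvLin
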